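import Cfsg.Agent.H125.Hall.Defs
import Cfsg.Agent.SignalizersComponents.Components
import Cfsg.Agent.S0205

/-!
# S2223, T1 and T2: tightly embedded subgroups and components

`TQ t Q K`: `K` is normalised by `C(t)`, `t` is the unique involution of `K`, `Q ≤ K` is generalized quaternion.

* `comp_norm` : `t` normalises every component;
* `le_or_comm` : a component centralised by `t` is contained in `K` or commutes with `K`.
-/

set_option autoImplicit false

namespace Cfsg.Agent.H328.Hall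

open Subgroup Cfsg.Agent.Cit Cfsg.Agent.H125.Hall Cfsg.Agent.SignalizersComponents.Components

variable {A : Type*} [Group A] {t : A} {Q K : Subgroup A} {L : Subgroup A}

/-- T2 (no finiteness needed) -/
theorem le_or_comm (h : TQ t Q K) (hL : Cfsg.IsComponent L) (hc : ∀ x ∈ L, t * x = x * t) :
    L ≤ K ∨ ∀ x ∈ L, ∀ y ∈ K, x * y = y * x := by
  have hn : L ≤ normalizer (K : Set A) := by
    intro x hx
    rw [mem_normalizer_iff]
    intro y
    refine ⟨fun hy => h.norm x (hc x hx).symm y hy, fun hy => ?_⟩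
    have h1 := h.norm x⁻¹ (by
      have h2 := hc x⁻¹ (L.inv_mem hx)
      exact h2.symm) _ hy
    have h3 : x⁻¹ * (x * y * x⁻¹) * x⁻¹⁻¹ = y := by group
    rwa [h3] at h1
  rcases component_le_or_commutator_eq_bot_of_le_normalizer hL hn with h1 | h1
  · exact Or.inl h1
  · refine Or.inr fun x hx y hy => ?_
    rw [commutator_eq_bot_iff_le_centralizer] at h1
    exact (mem_centralizer_iff.1 (h1 hx) y hy).symm

/-- conjugation -/
abbrev cj (g : A) (L : Subgroup A) : Subgroup A := L.map (MulAut.conj g).toMonoidHom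

theorem cj_cj (g h : A) (L : Subgroup A) : cj g (cj h L) = cj (g * h) L := by
  rw [cj, cj, map_map]
  congr 1
  ext x
  simp [mul_assoc]

theorem mem_cj {g x : A} {L : Subgroup A} (hx : x ∈ L) : g * x * g⁻¹ ∈ cj g L := ⟨x, hx, rfl⟩

theorem cj_one (L : Subgroup A) : cj 1 L = L := by
  ext x
  constructor
  · rintro ⟨y, hy, rfl⟩
    simpa using hy
  · intro hx
    exact ⟨x, hx, by simp⟩

/-- T1 -/
theorem comp_norm [Finite A] (h : TQ t Q K) (hL : Cfsg.IsComponent L) : ∀ x ∈ L, t * x * t⁻¹ ∈ L := by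
  obtain ⟨a, haQ, ha4⟩ := h.isQ.exists_four
  have hta : a ^ 2 = t := AutQuat.IsQ.sq_eq (fun s hs h2 => h.uniq s (h.le hs) h2) haQ ha4
  have haa : a * a = t := by rw [← hta, pow_two]
  have htt : t * t = 1 := by rw [← pow_two, ← h.ord, pow_orderOf_eq_one]
  have htinv : t⁻¹ = t := by rw [inv_eq_iff_mul_eq_one, htt]
  have haK : a ∈ K := h.le haQ
  have hat : a * t = t * a := by rw [← haa, mul_assoc]
  by_contra hne
  have hLt : cj t L ≠ L := by
    intro heq
    apply hne
    intro x hx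
    have := mem_cj (g := t) hx
    rwa [heq] at this
  have hLa : cj a L ≠ L := by
    intro heq
    apply hLt
    rw [← haa, ← cj_cj, heq, heq]
  have hLta : cj (t * a) L ≠ L := by
    intro heq
    apply hLt
    have h1 : (t * a) * (t * a) = t := by
      rw [show (t * a) * (t * a) = t * (a * t) * a by group, hat, show t * (t * a) * a = (t * t) * (a * a) by group, htt, haa,
        one_mul]
    rw [← h1, ← cj_cj, heq, heq]
  have comm : ∀ g : A, cj g L ≠ L → ∀ x ∈ L, ∀ y ∈ L, Commute x (g * y * g⁻¹) := by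
    intro g hg x hx y hy
    have h1 := component_le_centralizer_of_ne hL (isComponent_conj g hL) (Ne.symm hg)
    exact (mem_centralizer_iff.1 (h1 hx) _ (mem_cj hy)).symm
  have Ca := comm a hLa
  have Ct := comm t hLt
  have Cta := comm (t * a) hLta
  -- conjugation of a commuting pair
  have cc : ∀ g x y : A, Commute x y → Commute (g * x * g⁻¹) (g * y * g⁻¹) := by
    intro g x y hxy
    exact hxy.map (MulAut.conj g).toMonoidHom
  let δ : L →* A := MonoidHom.mk' (fun x => (x : A) * (t * x * t⁻¹)) (by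
    intro x y
    have h1 : (y : A) * (t * x * t⁻¹) = (t * x * t⁻¹) * y := (Ct y y.2 x x.2).eq
    show ((x : A) * y) * (t * ((x : A) * y) * t⁻¹) = (x * (t * x * t⁻¹)) * (y * (t * y * t⁻¹))
    calc ((x : A) * y) * (t * ((x : A) * y) * t⁻¹) = x * (y * (t * x * t⁻¹)) * (t * y * t⁻¹) := by group
      _ = x * ((t * x * t⁻¹) * y) * (t * y * t⁻¹) := by rw [h1]
      _ = _ := by group)
  have hδ : ∀ x : L, δ x = (x : A) * (t * x * t⁻¹) := fun _ => rfl
  -- `δ x` commutes with `t`
  have hδt : ∀ x : L, δ x * t = t * δ x := by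
    intro x
    have h1 : (x : A) * (t * x * t⁻¹) = (t * x * t⁻¹) * x := (Ct x x.2 x x.2).eq
    calc δ x * t = (x : A) * (t * x * t⁻¹) * t := by rw [hδ]
      _ = (t * x * t⁻¹) * x * t := by rw [h1]
      _ = t * (x * (t⁻¹ * x * t)) := by group
      _ = t * (x * (t * x * t⁻¹)) := by rw [htinv]
      _ = t * δ x := by rw [hδ]
  -- `x` commutes with `a δ y a⁻¹`
  have hxe : ∀ x ∈ L, ∀ y : L, Commute x (a * δ y * a⁻¹) := by
    intro x hx y
    have h1 : a * δ y * a⁻¹ = (a * y * a⁻¹) * ((t * a) * y * (t * a)⁻¹) := by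
      rw [hδ, ← hat]
      group
    rw [h1]
    exact (Ca x hx y y.2).mul_right (Cta x hx y y.2)
  have hde : ∀ x y : L, Commute (δ x) (a * δ y * a⁻¹) := by
    intro x y
    have h1 := cc t _ _ (hxe x x.2 y)
    have h2 : t * (a * δ y * a⁻¹) * t⁻¹ = a * δ y * a⁻¹ := by
      have h3 : t * (a * δ y * a⁻¹) * t⁻¹ = (t * a) * δ y * (t * a)⁻¹ := by group
      rw [h3, ← hat]
      calc a * t * δ y * (a * t)⁻¹ = a * (t * δ y) * t⁻¹ * a⁻¹ := by group
        _ = a * (δ y * t) * t⁻¹ * a⁻¹ := by rw [hδt]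
        _ = a * δ y * a⁻¹ := by group
    rw [h2] at h1
    exact (hxe x x.2 y).mul_left h1
  have hK1 : ∀ x : L, (δ x)⁻¹ * (a * δ x * a⁻¹) ∈ K := by
    intro x
    have h1 : (δ x)⁻¹ * a * (δ x)⁻¹⁻¹ ∈ K := h.norm _ (by
      have := hδt x⁻¹
      rwa [map_inv] at this) _ haK
    have h2 : (δ x)⁻¹ * (a * δ x * a⁻¹) = ((δ x)⁻¹ * a * (δ x)⁻¹⁻¹) * a⁻¹ := by group
    rw [h2]
    exact K.mul_mem h1 (K.inv_mem haK)
  have hK2 : ∀ x y : L, δ (y * x⁻¹ * y⁻¹ * x) ∈ K := by
    intro x y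
    have h1 := h.norm (δ y) (hδt y) _ (hK1 x)
    have h2 := K.mul_mem h1 (K.inv_mem (hK1 x))
    have h3 : δ y * ((δ x)⁻¹ * (a * δ x * a⁻¹)) * (δ y)⁻¹ * ((δ x)⁻¹ * (a * δ x * a⁻¹))⁻¹ = δ (y * x⁻¹ * y⁻¹ * x) := by
      have h4 : (a * δ x * a⁻¹) * (δ y)⁻¹ = (δ y)⁻¹ * (a * δ x * a⁻¹) := by
        have h5 := hde y⁻¹ x
        rw [map_inv] at h5
        exact h5.eq.symm
      calc δ y * ((δ x)⁻¹ * (a * δ x * a⁻¹)) * (δ y)⁻¹ * ((δ x)⁻¹ * (a * δ x * a⁻¹))⁻¹
          = δ y * (δ x)⁻¹ * ((a * δ x * a⁻¹) * (δ y)⁻¹) * (a * δ x * a⁻¹)⁻¹ * δ x := by group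
        _ = δ y * (δ x)⁻¹ * ((δ y)⁻¹ * (a * δ x * a⁻¹)) * (a * δ x * a⁻¹)⁻¹ * δ x := by rw [h4]
        _ = δ y * (δ x)⁻¹ * (δ y)⁻¹ * δ x := by group
        _ = δ (y * x⁻¹ * y⁻¹ * x) := by simp only [map_mul, map_inv]
    rwa [h3] at h2
  have hδK : ∀ x : L, δ x ∈ K := by
    have h1 : commutator L ≤ K.comap δ := by
      rw [commutator_def, commutator_le]
      intro y _ z _
      have h2 := hK2 z⁻¹ y
      rw [mem_comap, commutatorElement_def]
      rwa [inv_inv] at h2
    have h2 : commutator L = ⊤ := hL.2.1.commutator_eq_top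
    rw [h2] at h1
    exact fun x => h1 (mem_top x)
  -- the image has even order
  have heven : 2 ∣ Nat.card δ.range := by
    by_contra hodd
    have hodd' : Odd (Nat.card δ.range) := by
      rw [← Nat.not_even_iff_odd, even_iff_two_dvd]
      exact hodd
    have hsol : Group.IsSolvable δ.range := S0205.result hodd'
    rcases quasisimple_normal hL.2 δ.ker inferInstance with h1 | h1
    · apply hne
      intro x hx
      have h2 : (⟨x, hx⟩ : L) ∈ δ.ker := by rw [h1]; exact mem_top _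
      rw [MonoidHom.mem_ker, hδ] at h2
      have h3 : t * x * t⁻¹ = x⁻¹ := (inv_eq_of_mul_eq_one_right h2).symm
      rw [h3]
      exact L.inv_mem hx
    · refine quasisimple_not_isSolvable hL.2 ?_
      have h2 : Group.IsSolvable δ.ker := by
        refine Group.isSolvable_of_comm fun x y => ?_
        refine Subtype.ext ?_
        exact ((mem_center_iff.1 (h1 x.2)) y).symm
      exact Group.isSolvable_of_ker_le_range δ.ker.subtype δ.rangeRestrict (by
        rw [MonoidHom.ker_rangeRestrict, Subgroup.range_subtype])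
  obtain ⟨⟨w, hw⟩, hw2⟩ := exists_prime_orderOf_dvd_card' 2 heven
  rw [Subgroup.orderOf_mk] at hw2
  obtain ⟨y, rfl⟩ := hw
  have hy : δ y = t := h.uniq _ (hδK y) hw2
  apply hne
  intro x hx
  have h1 := hxe x hx y
  rw [hy, hat, mul_inv_cancel_right] at h1
  rw [← h1.eq, mul_inv_cancel_right]
  exact hx

end Cfsg.Agent.H328.Hall
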